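-- Team project OHYP (S5992): odd-dimensional orthogonal groups and hyperbolic m-spaces.
-- Interface file: definitions and the package statements (helper23).
import Mathlib
import Cfsg.Prelude.Def_GeometricClasses
import Cfsg.Prelude.Def_Classical

set_option autoImplicit false
open scoped MatrixGroups
open Matrix

namespace Cfsg.Agent.Lib.Helper23.OHyp

universe u

section defs

variable {F : Type u} [Field F] {ι : Type} [Fintype ι] [DecidableEq ι]

/-- `W` is mapped into itself by the matrix `x`. -/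
def Inv (x : Matrix ι ι F) (W : Submodule F (ι → F)) : Prop := W.map (Matrix.toLin' x) ≤ W

/-- The polar form of `Q` is nondegenerate on `W`. -/
def Nd (Q : (ι → F) → F) (W : Submodule F (ι → F)) : Prop :=
  Cfsg.Geo.IsNondegenerateOn (QuadraticMap.polar Q) W

/-- `W` contains a totally singular subspace of half its dimension. -/
def Plus (Q : (ι → F) → F) (W : Submodule F (ι → F)) : Prop := Cfsg.Geo.IsPlusTypeOn Q W

/-- `W₁` and `W₂` are orthogonal for the polar form of `Q`. -/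
def Perp (Q : (ι → F) → F) (W₁ W₂ : Submodule F (ι → F)) : Prop :=
  ∀ u ∈ W₁, ∀ v ∈ W₂, QuadraticMap.polar Q u v = 0

/-- The fixed space `ker (x - 1)`. -/
def fixSp (x : Matrix ι ι F) : Submodule F (ι → F) := LinearMap.ker (Matrix.toLin' x - 1)

/-- The moved space `range (x - 1)`. -/
def movSp (x : Matrix ι ι F) : Submodule F (ι → F) := LinearMap.range (Matrix.toLin' x - 1)

end defs

/-- `i`: the multiplicative order of `q` modulo `r`. -/
noncomputable def ordI (q r : ℕ) : ℕ := orderOf ((q : ℕ) : ZMod r)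

/-- `c = i` for `i` even and `c = 2 i` for `i` odd. -/
noncomputable def cc (q r : ℕ) : ℕ := if Even (ordI q r) then ordI q r else 2 * ordI q r

/-- Standing hypotheses: `x` is an isometry of the nondegenerate quadratic form `Q` over a finite
field of odd characteristic, `x ^ r = 1`, `r` an odd prime different from the characteristic. -/
structure Std {F : Type u} [Field F] [Fintype F] {ι : Type} [Fintype ι] [DecidableEq ι]
    (Q : (ι → F) → F) (r : ℕ) (x : Matrix ι ι F) : Prop where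
  nondeg : Cfsg.Geo.IsNondegenerateQuadraticForm Q
  two : (2 : F) ≠ 0
  prime : r.Prime
  ne_two : r ≠ 2
  ndvd : ¬ r ∣ Fintype.card F
  ne : (r : F) ≠ 0
  pow : x ^ r = 1
  isom : ∀ v, Q (x *ᵥ v) = Q v

/-- [QND] -/
def PkgQnd : Prop :=
  ∀ (F : Type u) [Field F], (2 : F) ≠ 0 → ∀ d : ℕ,
    Cfsg.Geo.IsNondegenerateQuadraticForm (Cfsg.quadFormOdd d F)

/-- [SPLIT] -/
def PkgSplit : Prop :=
  ∀ (F : Type u) [Field F] [Fintype F] (ι : Type) [Fintype ι] [DecidableEq ι]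
    (Q : (ι → F) → F) (r : ℕ) (x : Matrix ι ι F), Std Q r x →
    Nd Q (fixSp x) ∧ Nd Q (movSp x) ∧ Perp Q (fixSp x) (movSp x) ∧ IsCompl (fixSp x) (movSp x) ∧
    Inv x (movSp x) ∧
    ∀ W : Submodule F (ι → F), Inv x W → Nd Q W →
      Nd Q (W ⊓ fixSp x) ∧ Nd Q (W ⊓ movSp x) ∧ Inv x (W ⊓ movSp x) ∧
      (W ⊓ fixSp x) ⊔ (W ⊓ movSp x) = W ∧
      Module.finrank F W = Module.finrank F ↥(W ⊓ fixSp x) + Module.finrank F ↥(W ⊓ movSp x)

/-- [BLK] -/
def PkgBlk : Prop :=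
  ∀ (F : Type u) [Field F] [Fintype F] (ι : Type) [Fintype ι] [DecidableEq ι]
    (Q : (ι → F) → F) (r : ℕ) (x : Matrix ι ι F), Std Q r x →
    ∀ W : Submodule F (ι → F), W ≤ movSp x → Inv x W → Nd Q W → W ≠ ⊥ →
      ∃ D : Submodule F (ι → F), D ≤ W ∧ Inv x D ∧ Nd Q D ∧
        Module.finrank F D = cc (Fintype.card F) r ∧
        (Plus Q D ↔ Odd (ordI (Fintype.card F) r))

/-- [PERP] -/
def PkgPerp : Prop :=
  ∀ (F : Type u) [Field F] (ι : Type) [Fintype ι] [DecidableEq ι]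
    (Q : (ι → F) → F), Cfsg.Geo.IsNondegenerateQuadraticForm Q →
    ∀ x : Matrix ι ι F, (∀ v, Q (x *ᵥ v) = Q v) → IsUnit x.det →
    ∀ W D : Submodule F (ι → F), D ≤ W → Inv x W → Inv x D → Nd Q W → Nd Q D →
      ∃ W' : Submodule F (ι → F), W' ≤ W ∧ Inv x W' ∧ Nd Q W' ∧ Perp Q D W' ∧ D ⊔ W' = W ∧
        Module.finrank F W = Module.finrank F D + Module.finrank F W'

/-- [SUM] -/
def PkgSum : Prop :=
  ∀ (F : Type u) [Field F] [Fintype F] (ι : Type) [Fintype ι] [DecidableEq ι]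
    (Q : (ι → F) → F), Cfsg.Geo.IsNondegenerateQuadraticForm Q → (2 : F) ≠ 0 →
    ∀ W₁ W₂ : Submodule F (ι → F), Nd Q W₁ → Nd Q W₂ → Perp Q W₁ W₂ →
      Nd Q (W₁ ⊔ W₂) ∧
      Module.finrank F ↥(W₁ ⊔ W₂) = Module.finrank F W₁ + Module.finrank F W₂ ∧
      (Even (Module.finrank F W₁) → Even (Module.finrank F W₂) →
        (Plus Q (W₁ ⊔ W₂) ↔ (Plus Q W₁ ↔ Plus Q W₂)))

/-- [GEOM] -/
def PkgGeom : Prop :=
  ∀ (F : Type u) [Field F] [Fintype F] (ι : Type) [Fintype ι] [DecidableEq ι]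
    (Q : (ι → F) → F), Cfsg.Geo.IsNondegenerateQuadraticForm Q → (2 : F) ≠ 0 →
    ∀ C : Submodule F (ι → F), Nd Q C →
    ∀ (e : ℕ) (ε : Prop), Even e → e + 1 ≤ Module.finrank F C → (e = 0 → ε) →
      ∃ W₀ : Submodule F (ι → F), W₀ ≤ C ∧ Nd Q W₀ ∧ Module.finrank F W₀ = e ∧ (Plus Q W₀ ↔ ε)

/-- [DIV] -/
def PkgDiv : Prop :=
  ∀ (F : Type u) [Field F] [Fintype F] (ι : Type) [Fintype ι] [DecidableEq ι]
    (Q : (ι → F) → F) (r : ℕ) (x : Matrix ι ι F), Std Q r x →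
    ∀ W : Submodule F (ι → F), W ≤ movSp x → Inv x W → Nd Q W →
      cc (Fintype.card F) r ∣ Module.finrank F W ∧
      (Plus Q W ↔ (Odd (ordI (Fintype.card F) r) ∨
        Even (Module.finrank F W / ordI (Fintype.card F) r)))

/-- [SUB] -/
def PkgSub : Prop :=
  ∀ (F : Type u) [Field F] [Fintype F] (ι : Type) [Fintype ι] [DecidableEq ι]
    (Q : (ι → F) → F) (r : ℕ) (x : Matrix ι ι F), Std Q r x →
    ∀ W : Submodule F (ι → F), W ≤ movSp x → Inv x W → Nd Q W →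
    ∀ j : ℕ, cc (Fintype.card F) r * j ≤ Module.finrank F W →
      ∃ W' : Submodule F (ι → F), W' ≤ W ∧ Inv x W' ∧ Nd Q W' ∧
        Module.finrank F W' = cc (Fintype.card F) r * j

/-- [EXIST] -/
def PkgExist : Prop :=
  ∀ (F : Type u) [Field F] [Fintype F] (ι : Type) [Fintype ι] [DecidableEq ι]
    (Q : (ι → F) → F), Cfsg.Geo.IsNondegenerateQuadraticForm Q → (2 : F) ≠ 0 →
    Odd (Fintype.card ι) →
    ∀ (r : ℕ), r.Prime → r ≠ 2 → ¬ r ∣ Fintype.card F →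
    ∀ (j : ℕ), 1 ≤ j → cc (Fintype.card F) r * j + 1 ≤ Fintype.card ι →
      ∃ x : GL ι F, x ∈ Cfsg.isometryGroup F Q ∧ orderOf x = r ∧
        Module.finrank F (fixSp (x : Matrix ι ι F)) + cc (Fintype.card F) r * j = Fintype.card ι

/-- [ODDOMEGA] -/
def PkgOddOmega : Prop :=
  ∀ (F : Type u) [Field F] [Fintype F] (ι : Type) [Fintype ι] [DecidableEq ι]
    (Q : (ι → F) → F), Cfsg.Geo.IsNondegenerateQuadraticForm Q → (2 : F) ≠ 0 →
    ∀ x : GL ι F, x ∈ Cfsg.isometryGroup F Q → Odd (orderOf x) → x ∈ Cfsg.Geo.omegaGL Q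

/-- [INVOL] -/
def PkgInvol : Prop :=
  ∀ (F : Type u) [Field F] [Fintype F] (ι : Type) [Fintype ι] [DecidableEq ι]
    (Q : (ι → F) → F), Cfsg.Geo.IsNondegenerateQuadraticForm Q → (2 : F) ≠ 0 →
    ∀ x : GL ι F, x ∈ Cfsg.isometryGroup F Q → x ^ 2 = 1 →
    ∀ m : ℕ, Even m → m + 1 ≤ Fintype.card ι → 3 ≤ Fintype.card ι →
      ∃ W : Submodule F (ι → F), (Module.finrank F W = m ∧
        Cfsg.Geo.IsNondegenerateOn (QuadraticMap.polar Q) W ∧ Cfsg.Geo.IsPlusTypeOn Q W) ∧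
        W.map (Matrix.toLin' (x : Matrix ι ι F)) ≤ W

/-- [CNT] -/
def PkgCnt : Prop :=
  ∀ (F : Type u) [Field F] [Fintype F] (ι : Type) [Fintype ι] [DecidableEq ι]
    (Q : (ι → F) → F), Cfsg.Geo.IsNondegenerateQuadraticForm Q → (2 : F) ≠ 0 →
    Odd (Fintype.card ι) →
    ∀ (r : ℕ), r.Prime → r ≠ 2 → ¬ r ∣ Fintype.card F →
    ∀ (m : ℕ), Even m → m < cc (Fintype.card F) r →
      m < Fintype.card ι % cc (Fintype.card F) r →
      ¬ r ∣ Nat.card {W : Submodule F (ι → F) // Module.finrank F ↥W = m ∧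
        Cfsg.Geo.IsNondegenerateOn (QuadraticMap.polar Q) W ∧ Cfsg.Geo.IsPlusTypeOn Q W}

end Cfsg.Agent.Lib.Helper23.OHyp
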