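-- Team project OHYP (S5992): assembly of the packages (helper23).
import Cfsg.Agent.Lib.Helper23.OHyp.Defs

set_option autoImplicit false
open scoped MatrixGroups
open Matrix

namespace Cfsg.Agent.Lib.Helper23.OHyp

universe u

/-! ### Numerics of `cc` -/

theorem cc_eq_of_even {q r : ℕ} (h : Even (ordI q r)) : cc q r = ordI q r := by
  unfold cc; rw [if_pos h]

theorem cc_eq_of_odd {q r : ℕ} (h : Odd (ordI q r)) : cc q r = 2 * ordI q r := by
  unfold cc; rw [if_neg (Nat.not_even_iff_odd.mpr h)]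

theorem cc_even (q r : ℕ) : ∃ c', cc q r = 2 * c' := by
  rcases Nat.even_or_odd (ordI q r) with h | h
  · obtain ⟨t, ht⟩ := h
    exact ⟨t, by rw [cc_eq_of_even ⟨t, ht⟩, ht]; ring⟩
  · exact ⟨ordI q r, cc_eq_of_odd h⟩

theorem cc_pos {q r : ℕ} (h : 0 < ordI q r) : 0 < cc q r := by
  rcases Nat.even_or_odd (ordI q r) with he | ho
  · rw [cc_eq_of_even he]; exact h
  · rw [cc_eq_of_odd ho]; omega

theorem ordI_pos {q r : ℕ} (hr : r.Prime) (hrq : ¬ r ∣ q) : 0 < ordI q r := by
  have : Fact r.Prime := ⟨hr⟩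
  unfold ordI
  rw [orderOf_pos_iff, isOfFinOrder_iff_pow_eq_one]
  refine ⟨r - 1, by have := hr.two_le; omega, ?_⟩
  apply ZMod.pow_card_sub_one_eq_one
  rwa [Ne, ZMod.natCast_eq_zero_iff]

theorem mod_cc_even {q r m : ℕ} (hm : Even m) : Even (m % cc q r) := by
  obtain ⟨c', hc'⟩ := cc_even q r
  rw [hc']
  have h := Nat.div_add_mod m (2 * c')
  obtain ⟨t, ht⟩ := hm
  have h1 : 2 * (c' * (m / (2 * c'))) + m % (2 * c') = m := by rw [← mul_assoc]; exact h
  exact ⟨t - c' * (m / (2 * c')), by omega⟩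

theorem mod_cc_odd {q r n : ℕ} (hn : Odd n) : Odd (n % cc q r) := by
  obtain ⟨c', hc'⟩ := cc_even q r
  rw [hc']
  have h := Nat.div_add_mod n (2 * c')
  obtain ⟨t, ht⟩ := hn
  have h1 : 2 * (c' * (n / (2 * c'))) + n % (2 * c') = n := by rw [← mul_assoc]; exact h
  exact ⟨t - c' * (n / (2 * c')), by omega⟩

section
variable {F : Type u} [Field F] {ι : Type} [Fintype ι] [DecidableEq ι]

theorem inv_sup {x : Matrix ι ι F} {W₀ W₁ : Submodule F (ι → F)} (h0 : W₀ ≤ fixSp x)
    (h1 : Inv x W₁) : Inv x (W₀ ⊔ W₁) := by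
  unfold Inv at *
  rw [Submodule.map_sup]
  refine sup_le_sup ?_ h1
  rintro _ ⟨w, hw, rfl⟩
  have h2 : (Matrix.toLin' x - 1) w = 0 := LinearMap.mem_ker.mp (h0 hw)
  have h3 : Matrix.toLin' x w = w := by
    rw [LinearMap.sub_apply, sub_eq_zero] at h2
    simpa using h2
  rw [h3]; exact hw

theorem mem_iso_of_mem_omega {Q : (ι → F) → F} {x : GL ι F} (hx : x ∈ Cfsg.Geo.omegaGL Q) :
    x ∈ Cfsg.isometryGroup F Q := by
  obtain ⟨y, -, rfl⟩ := hx
  exact y.2

theorem isom_of_mem {Q : (ι → F) → F} {x : GL ι F} (hx : x ∈ Cfsg.isometryGroup F Q) :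
    ∀ v, Q ((x : Matrix ι ι F) *ᵥ v) = Q v := fun v => hx v v

end

section
variable {F : Type u} [Field F] [Fintype F] {ι : Type} [Fintype ι] [DecidableEq ι]

theorem fix_of (hSplit : PkgSplit.{u}) (hDiv : PkgDiv.{u}) (hSub : PkgSub.{u})
    (hGeom : PkgGeom.{u}) (hSum : PkgSum.{u})
    (Q : (ι → F) → F) (r : ℕ) (x : Matrix ι ι F) (hS : Std Q r x)
    (m : ℕ) (hme : Even m) (hmn : m + 1 ≤ Fintype.card ι)
    (hcond : m % cc (Fintype.card F) r < Fintype.card ι % cc (Fintype.card F) r ∧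
      (0 < m % cc (Fintype.card F) r ∨ Odd (ordI (Fintype.card F) r) ∨
        Even (m / ordI (Fintype.card F) r))) :
    ∃ W : Submodule F (ι → F), (Module.finrank F W = m ∧ Nd Q W ∧ Plus Q W) ∧ Inv x W := by
  have hipos : 0 < ordI (Fintype.card F) r := ordI_pos hS.prime hS.ndvd
  have hcpos : 0 < cc (Fintype.card F) r := cc_pos hipos
  obtain ⟨c', hc'⟩ := cc_even (Fintype.card F) r
  obtain ⟨hNdC, hNdN, hPerp, hCompl, hInvN, -⟩ := hSplit F ι Q r x hS
  obtain ⟨⟨j, hj⟩, -⟩ := hDiv F ι Q r x hS (movSp x) le_rfl hInvN hNdN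
  have hdim : Module.finrank F (fixSp x) + Module.finrank F (movSp x) = Fintype.card ι := by
    rw [Submodule.finrank_add_eq_of_isCompl hCompl, Module.finrank_fintype_fun_eq_card]
  have hj'le : cc (Fintype.card F) r * min j (m / cc (Fintype.card F) r) ≤
      Module.finrank F (movSp x) := by
    rw [hj]; exact Nat.mul_le_mul_left _ (min_le_left _ _)
  obtain ⟨W₁, hW₁le, hW₁inv, hW₁nd, hW₁dim⟩ :=
    hSub F ι Q r x hS (movSp x) le_rfl hInvN hNdN _ hj'le
  have he_le : cc (Fintype.card F) r * min j (m / cc (Fintype.card F) r) ≤ m :=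
    (Nat.mul_le_mul_left _ (min_le_right _ _)).trans (Nat.mul_div_le m _)
  have hW₁even : Even (cc (Fintype.card F) r * min j (m / cc (Fintype.card F) r)) := by
    rw [hc', mul_assoc]; exact even_two_mul _
  have heven : Even (m - cc (Fintype.card F) r * min j (m / cc (Fintype.card F) r)) :=
    (Nat.even_sub he_le).mpr ⟨fun _ => hW₁even, fun _ => hme⟩
  have hmod := Nat.div_add_mod m (cc (Fintype.card F) r)
  have hmodn := Nat.div_add_mod (Fintype.card ι) (cc (Fintype.card F) r)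
  have he1 : m - cc (Fintype.card F) r * min j (m / cc (Fintype.card F) r) + 1 ≤
      Module.finrank F (fixSp x) := by
    rcases le_total j (m / cc (Fintype.card F) r) with hjm | hjm
    · rw [min_eq_left hjm]
      rw [min_eq_left hjm] at he_le
      omega
    · rw [min_eq_right hjm]
      have hjn : j ≤ Fintype.card ι / cc (Fintype.card F) r := by
        rw [Nat.le_div_iff_mul_le hcpos, mul_comm]
        omega
      have h3 : cc (Fintype.card F) r * j ≤
          cc (Fintype.card F) r * (Fintype.card ι / cc (Fintype.card F) r) :=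
        Nat.mul_le_mul_left _ hjn
      have h4 := hcond.1
      omega
  obtain ⟨-, hDivW₁⟩ := hDiv F ι Q r x hS W₁ hW₁le hW₁inv hW₁nd
  have hε : m - cc (Fintype.card F) r * min j (m / cc (Fintype.card F) r) = 0 → Plus Q W₁ := by
    intro h0
    have hm_eq : cc (Fintype.card F) r * min j (m / cc (Fintype.card F) r) = m := by omega
    rw [hDivW₁, hW₁dim, hm_eq]
    rcases hcond.2 with h | h | h
    · exfalso
      have : m % cc (Fintype.card F) r = 0 := by
        rw [← hm_eq]; exact Nat.mul_mod_right _ _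
      omega
    · exact Or.inl h
    · exact Or.inr h
  obtain ⟨W₀, hW₀le, hW₀nd, hW₀dim, hW₀plus⟩ :=
    hGeom F ι Q hS.nondeg hS.two (fixSp x) hNdC _ (Plus Q W₁) heven he1 hε
  have hperp : Perp Q W₀ W₁ := fun u hu v hv => hPerp u (hW₀le hu) v (hW₁le hv)
  obtain ⟨hnd, hdimsum, hplus⟩ := hSum F ι Q hS.nondeg hS.two W₀ W₁ hW₀nd hW₁nd hperp
  refine ⟨W₀ ⊔ W₁, ⟨?_, hnd, ?_⟩, inv_sup hW₀le hW₁inv⟩
  · rw [hdimsum, hW₀dim, hW₁dim]; omega
  · exact (hplus (by rw [hW₀dim]; exact heven) (by rw [hW₁dim]; exact hW₁even)).mpr hW₀plus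

theorem der_of (hSplit : PkgSplit.{u}) (hDiv : PkgDiv.{u}) (hExist : PkgExist.{u})
    (hOddOmega : PkgOddOmega.{u})
    (Q : (ι → F) → F) (hQ : Cfsg.Geo.IsNondegenerateQuadraticForm Q) (h2 : (2 : F) ≠ 0)
    (hodd : Odd (Fintype.card ι)) (r : ℕ) (hr : r.Prime) (hr2 : r ≠ 2)
    (hrq : ¬ r ∣ Fintype.card F) (hrF : (r : F) ≠ 0) (m : ℕ) (hme : Even m)
    (hcn : cc (Fintype.card F) r ≤ Fintype.card ι)
    (hcase : Fintype.card ι % cc (Fintype.card F) r ≤ m % cc (Fintype.card F) r ∨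
      (Even (ordI (Fintype.card F) r) ∧ m % cc (Fintype.card F) r = 0 ∧
        Odd (m / cc (Fintype.card F) r))) :
    ∃ x : GL ι F, x ∈ Cfsg.Geo.omegaGL Q ∧ orderOf x = r ∧
      ¬ ∃ W : Submodule F (ι → F), (Module.finrank F W = m ∧ Nd Q W ∧ Plus Q W) ∧
        Inv (x : Matrix ι ι F) W := by
  have hipos : 0 < ordI (Fintype.card F) r := ordI_pos hr hrq
  have hcpos : 0 < cc (Fintype.card F) r := cc_pos hipos
  obtain ⟨c', hc'⟩ := cc_even (Fintype.card F) r
  have hkodd : Odd (Fintype.card ι % cc (Fintype.card F) r) := mod_cc_odd hodd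
  have hlev : Even (m % cc (Fintype.card F) r) := mod_cc_even hme
  have hmodn := Nat.div_add_mod (Fintype.card ι) (cc (Fintype.card F) r)
  have hmodm := Nat.div_add_mod m (cc (Fintype.card F) r)
  have hJ1 : 1 ≤ Fintype.card ι / cc (Fintype.card F) r := Nat.div_pos hcn hcpos
  have hk1 : 1 ≤ Fintype.card ι % cc (Fintype.card F) r := by
    obtain ⟨t, ht⟩ := hkodd; omega
  obtain ⟨x, hxiso, hxord, hxfix⟩ := hExist F ι Q hQ h2 hodd r hr hr2 hrq
    (Fintype.card ι / cc (Fintype.card F) r) hJ1 (by omega)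
  have hrodd : Odd r := hr.odd_of_ne_two hr2
  have hxΩ := hOddOmega F ι Q hQ h2 x hxiso (by rw [hxord]; exact hrodd)
  refine ⟨x, hxΩ, hxord, ?_⟩
  rintro ⟨W, ⟨hWdim, hWnd, hWplus⟩, hWinv⟩
  have hpow : (x : Matrix ι ι F) ^ r = 1 := by
    have h := pow_orderOf_eq_one x
    rw [hxord] at h
    rw [← Units.val_pow_eq_pow_val, h]; rfl
  have hS : Std Q r (x : Matrix ι ι F) := ⟨hQ, h2, hr, hr2, hrq, hrF, hpow, isom_of_mem hxiso⟩
  obtain ⟨-, -, -, -, -, hWs⟩ := hSplit F ι Q r (x : Matrix ι ι F) hS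
  obtain ⟨-, hW1nd, hW1inv, hsup, hdims⟩ := hWs W hWinv hWnd
  obtain ⟨⟨j', hj'⟩, hplus1⟩ := hDiv F ι Q r (x : Matrix ι ι F) hS
    (W ⊓ movSp (x : Matrix ι ι F)) inf_le_right hW1inv hW1nd
  have hle0 : Module.finrank F ↥(W ⊓ fixSp (x : Matrix ι ι F)) ≤
      Module.finrank F (fixSp (x : Matrix ι ι F)) := Submodule.finrank_mono inf_le_right
  have hfixk : Module.finrank F (fixSp (x : Matrix ι ι F)) =
      Fintype.card ι % cc (Fintype.card F) r := by omega
  have hklt : Fintype.card ι % cc (Fintype.card F) r < cc (Fintype.card F) r :=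
    Nat.mod_lt _ hcpos
  have hf0 : Module.finrank F ↥(W ⊓ fixSp (x : Matrix ι ι F)) = m % cc (Fintype.card F) r := by
    have h5 : m = cc (Fintype.card F) r * j' +
        Module.finrank F ↥(W ⊓ fixSp (x : Matrix ι ι F)) := by omega
    have h6 : Module.finrank F ↥(W ⊓ fixSp (x : Matrix ι ι F)) < cc (Fintype.card F) r := by
      omega
    conv_rhs => rw [h5]
    rw [Nat.mul_add_mod, Nat.mod_eq_of_lt h6]
  rcases hcase with hk | ⟨hev, hl0, hoddM⟩
  · have h7 : m % cc (Fintype.card F) r = Fintype.card ι % cc (Fintype.card F) r := by omega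
    rw [h7] at hlev
    exact (Nat.not_even_iff_odd.mpr hkodd) hlev
  · have hbot : W ⊓ fixSp (x : Matrix ι ι F) = ⊥ :=
      Submodule.finrank_eq_zero.mp (by rw [hf0, hl0])
    have hWeq : W ⊓ movSp (x : Matrix ι ι F) = W := by
      rw [hbot, bot_sup_eq] at hsup; exact hsup
    have hplus2 : Plus Q W ↔ (Odd (ordI (Fintype.card F) r) ∨
        Even (Module.finrank F W / ordI (Fintype.card F) r)) := by
      have h8 := hplus1
      rw [hWeq] at h8
      exact h8
    rcases hplus2.mp hWplus with h | h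
    · exact (Nat.not_odd_iff_even.mpr hev) h
    · rw [hWdim, ← cc_eq_of_even hev] at h
      exact (Nat.not_even_iff_odd.mpr hoddM) h

end

/-- The frozen statement of S5992 from the top-level packages. -/
theorem result_of (hQnd : PkgQnd.{u}) (hSplit : PkgSplit.{u}) (hDiv : PkgDiv.{u})
    (hSub : PkgSub.{u}) (hGeom : PkgGeom.{u}) (hSum : PkgSum.{u}) (hExist : PkgExist.{u})
    (hOddOmega : PkgOddOmega.{u}) (hInvol : PkgInvol.{u}) (hCnt : PkgCnt.{u})
    {F : Type u} [Field F] [Fintype F] {p : ℕ} [Fact p.Prime] [CharP F p] {q : ℕ} (hq : Fintype.card F = q) (hqodd : Odd q)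
    (d m : ℕ) (hd : 3 ≤ d) (_hm : 2 ≤ m) (hme : Even m) (hmn : m ≤ 2 * d)
    (r : ℕ) [Fact r.Prime] (hrp : r ≠ p)
    (hrΩ : r ∣ Nat.card {W : Submodule F (Unit ⊕ (Fin d ⊕ Fin d) → F) // Module.finrank F ↥W = m ∧ Cfsg.Geo.IsNondegenerateOn (QuadraticMap.polar (Cfsg.quadFormOdd d F)) W ∧ Cfsg.Geo.IsPlusTypeOn (Cfsg.quadFormOdd d F) W})
    (i c : ℕ) (hi : i = orderOf (q : ZMod r)) (hc : c = if Even i then i else 2 * i) :
    (∀ x : GL (Unit ⊕ (Fin d ⊕ Fin d)) F, x ∈ Cfsg.Geo.omegaGL (Cfsg.quadFormOdd d F) → orderOf x = r →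
      ∃ W : Submodule F (Unit ⊕ (Fin d ⊕ Fin d) → F), (Module.finrank F ↥W = m ∧ Cfsg.Geo.IsNondegenerateOn (QuadraticMap.polar (Cfsg.quadFormOdd d F)) W ∧ Cfsg.Geo.IsPlusTypeOn (Cfsg.quadFormOdd d F) W) ∧ W.map (Matrix.toLin' (x : Matrix (Unit ⊕ (Fin d ⊕ Fin d)) (Unit ⊕ (Fin d ⊕ Fin d)) F)) ≤ W) ↔
    (r = 2 ∨
     (2 < r ∧ Odd i ∧ c ≤ m ∧ (m % c = 0 ∨ (0 < m % c ∧ m % c < (2 * d + 1) % c))) ∨
     (2 < r ∧ Even i ∧ i ≤ m ∧ m % c < (2 * d + 1) % c ∧ (0 < m % c ∨ Even (m / i)))) := by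
  subst hq
  have h2 : (2 : F) ≠ 0 := by
    apply Ring.two_ne_zero
    intro hc2
    have := FiniteField.even_card_of_char_two hc2
    rw [Nat.odd_iff] at hqodd
    omega
  have hQ := hQnd F h2 d
  have hrpr : r.Prime := Fact.out
  have hpp : p.Prime := Fact.out
  have hrq : ¬ r ∣ Fintype.card F := by
    intro h
    obtain ⟨k, hp, hk⟩ := FiniteField.card F p
    rw [hk] at h
    exact hrp ((Nat.prime_dvd_prime_iff_eq hrpr hp).mp (hrpr.dvd_of_dvd_pow h))
  have hrF : (r : F) ≠ 0 := by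
    intro h
    rw [CharP.cast_eq_zero_iff F p] at h
    exact hrp ((Nat.prime_dvd_prime_iff_eq hpp hrpr).mp h).symm
  have hn : Fintype.card (Unit ⊕ (Fin d ⊕ Fin d)) = 2 * d + 1 := by
    simp; omega
  have hnodd : Odd (Fintype.card (Unit ⊕ (Fin d ⊕ Fin d))) := by rw [hn]; exact ⟨d, rfl⟩
  have hiI : i = ordI (Fintype.card F) r := hi
  have hcc : c = cc (Fintype.card F) r := by rw [hc, hiI]; rfl
  by_cases hr2 : r = 2
  · constructor
    · intro _; exact Or.inl hr2
    · intro _ x hx hxr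
      have hxiso := mem_iso_of_mem_omega hx
      have hx2 : x ^ 2 = 1 := by rw [← hr2, ← hxr]; exact pow_orderOf_eq_one x
      exact hInvol F _ _ hQ h2 x hxiso hx2 m hme (by omega) (by omega)
  · have hipos : 0 < ordI (Fintype.card F) r := ordI_pos hrpr hrq
    have hcpos : 0 < cc (Fintype.card F) r := cc_pos hipos
    have hkodd : Odd ((2 * d + 1) % cc (Fintype.card F) r) := by
      rw [← hn]; exact mod_cc_odd hnodd
    have hk1 : 1 ≤ (2 * d + 1) % cc (Fintype.card F) r := by
      obtain ⟨t, ht⟩ := hkodd; omega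
    have hr3 : 2 < r := by have := hrpr.two_le; omega
    rw [hcc, hiI]
    constructor
    · intro hall
      by_contra hnot
      have hcases : ((2 * d + 1) % cc (Fintype.card F) r ≤ m % cc (Fintype.card F) r ∨
          (Even (ordI (Fintype.card F) r) ∧ m % cc (Fintype.card F) r = 0 ∧
            Odd (m / cc (Fintype.card F) r))) ∨
          (m < cc (Fintype.card F) r ∧ m < (2 * d + 1) % cc (Fintype.card F) r) := by
        by_cases hkl : (2 * d + 1) % cc (Fintype.card F) r ≤ m % cc (Fintype.card F) r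
        · exact Or.inl (Or.inl hkl)
        · by_cases hmc : m < cc (Fintype.card F) r
          · right
            refine ⟨hmc, ?_⟩
            rw [Nat.mod_eq_of_lt hmc] at hkl
            omega
          · left; right
            rcases Nat.even_or_odd (ordI (Fintype.card F) r) with hev | hod
            · have hci := cc_eq_of_even hev
              refine ⟨hev, ?_⟩
              by_contra hcon
              apply hnot
              right; right
              refine ⟨hr3, hev, by rw [← hci]; omega, by omega, ?_⟩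
              by_contra hcon2
              apply hcon
              push Not at hcon2
              refine ⟨by omega, ?_⟩
              rw [hci]
              exact Nat.not_even_iff_odd.mp hcon2.2
            · exfalso
              apply hnot
              right; left
              refine ⟨hr3, hod, by omega, ?_⟩
              by_cases hl0 : m % cc (Fintype.card F) r = 0
              · exact Or.inl hl0
              · exact Or.inr ⟨by omega, by omega⟩
      rcases hcases with hcase | ⟨hmc, hmk⟩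
      · have hcn : cc (Fintype.card F) r ≤ Fintype.card (Unit ⊕ (Fin d ⊕ Fin d)) := by
          rw [hn]
          by_contra hlt
          push Not at hlt
          rw [Nat.mod_eq_of_lt hlt] at hcase
          rcases hcase with h | ⟨-, h0, hoddM⟩
          · have := Nat.mod_le m (cc (Fintype.card F) r)
            omega
          · have hdiv0 : m / cc (Fintype.card F) r = 0 := Nat.div_eq_of_lt (by omega)
            rw [hdiv0] at hoddM
            exact absurd hoddM (by decide)
        obtain ⟨x, hxΩ, hxord, hxno⟩ := der_of hSplit hDiv hExist hOddOmega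
          (Cfsg.quadFormOdd d F) hQ h2 hnodd r hrpr hr2 hrq hrF m hme hcn (by rw [hn]; exact hcase)
        exact hxno (hall x hxΩ hxord)
      · exact hCnt F _ _ hQ h2 hnodd r hrpr hr2 hrq m hme hmc (by rw [hn]; exact hmk) hrΩ
    · intro hR x hx hxr
      have hcond : m % cc (Fintype.card F) r < (2 * d + 1) % cc (Fintype.card F) r ∧
          (0 < m % cc (Fintype.card F) r ∨ Odd (ordI (Fintype.card F) r) ∨
            Even (m / ordI (Fintype.card F) r)) := by
        rcases hR with h | ⟨-, hod, -, h⟩ | ⟨-, -, -, hlt, h⟩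
        · exact absurd h hr2
        · refine ⟨?_, Or.inr (Or.inl hod)⟩
          rcases h with h | h
          · omega
          · exact h.2
        · refine ⟨hlt, ?_⟩
          rcases h with h | h
          · exact Or.inl h
          · exact Or.inr (Or.inr h)
      have hxiso := mem_iso_of_mem_omega hx
      have hpow : (x : Matrix (Unit ⊕ (Fin d ⊕ Fin d)) (Unit ⊕ (Fin d ⊕ Fin d)) F) ^ r = 1 := by
        have h := pow_orderOf_eq_one x
        rw [hxr] at h
        rw [← Units.val_pow_eq_pow_val, h]; rfl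
      have hS : Std (Cfsg.quadFormOdd d F) r
          (x : Matrix (Unit ⊕ (Fin d ⊕ Fin d)) (Unit ⊕ (Fin d ⊕ Fin d)) F) :=
        ⟨hQ, h2, hrpr, hr2, hrq, hrF, hpow, isom_of_mem hxiso⟩
      exact fix_of hSplit hDiv hSub hGeom hSum (Cfsg.quadFormOdd d F) r _ hS m hme
        (by rw [hn]; omega) (by rw [hn]; exact hcond)

end Cfsg.Agent.Lib.Helper23.OHyp
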