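-- Team project OHYP (S5992): the cut of package [CNT] (helper23).
import Cfsg.Agent.Lib.Helper23.OHyp.Defs

set_option autoImplicit false
open scoped MatrixGroups
open Matrix

namespace Cfsg.Agent.Lib.Helper23.OHyp

universe u

/-- The hyperbolic `m`-spaces of `Q`. -/
abbrev HypSp {F : Type u} [Field F] {ι : Type} [Fintype ι] [DecidableEq ι]
    (Q : (ι → F) → F) (m : ℕ) : Type u :=
  {W : Submodule F (ι → F) // Module.finrank F ↥W = m ∧
    Cfsg.Geo.IsNondegenerateOn (QuadraticMap.polar Q) W ∧ Cfsg.Geo.IsPlusTypeOn Q W}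

/-- [CNTX] an isometry `x` with `x ^ r = 1` whose fixed space has dimension `< c` and `> m`. -/
def PkgCntX : Prop :=
  ∀ (F : Type u) [Field F] [Fintype F] (ι : Type) [Fintype ι] [DecidableEq ι]
    (Q : (ι → F) → F), Cfsg.Geo.IsNondegenerateQuadraticForm Q → (2 : F) ≠ 0 →
    Odd (Fintype.card ι) →
    ∀ (r : ℕ), r.Prime → r ≠ 2 → ¬ r ∣ Fintype.card F →
    ∀ (m : ℕ), m < cc (Fintype.card F) r → m < Fintype.card ι % cc (Fintype.card F) r →
      ∃ x : GL ι F, x ∈ Cfsg.isometryGroup F Q ∧ x ^ r = 1 ∧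
        Module.finrank F (fixSp (x : Matrix ι ι F)) < cc (Fintype.card F) r ∧
        m < Module.finrank F (fixSp (x : Matrix ι ι F))

/-- [CNTCONG] fixed-point congruence for the cyclic group generated by `x`. -/
def PkgCntCong : Prop :=
  ∀ (F : Type u) [Field F] [Fintype F] (ι : Type) [Fintype ι] [DecidableEq ι]
    (Q : (ι → F) → F) (m r : ℕ), r.Prime →
    ∀ x : GL ι F, x ∈ Cfsg.isometryGroup F Q → x ^ r = 1 →
      Nat.card (HypSp Q m) ≡ Nat.card {W : HypSp Q m // Inv (x : Matrix ι ι F) W.1} [MOD r]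

/-- [CNTFIX] an invariant nondegenerate subspace of dimension `< c` is fixed pointwise. -/
def PkgCntFix : Prop :=
  ∀ (F : Type u) [Field F] [Fintype F] (ι : Type) [Fintype ι] [DecidableEq ι]
    (Q : (ι → F) → F) (r : ℕ) (x : Matrix ι ι F), Std Q r x →
    ∀ W : Submodule F (ι → F), Nd Q W → Inv x W →
      Module.finrank F W < cc (Fintype.card F) r → W ≤ fixSp x

/-- [CNTWITT] the pointwise stabilizer of `movSp x` is transitive on the hyperbolic `m`-spaces
inside `fixSp x`. -/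
def PkgCntWitt : Prop :=
  ∀ (F : Type u) [Field F] [Fintype F] (ι : Type) [Fintype ι] [DecidableEq ι]
    (Q : (ι → F) → F) (r : ℕ) (x : Matrix ι ι F), Std Q r x →
    ∀ (m : ℕ) (W W' : HypSp Q m), W.1 ≤ fixSp x → W'.1 ≤ fixSp x →
      ∃ g : GL ι F, g ∈ Cfsg.isometryGroup F Q ∧
        (∀ v ∈ movSp x, (g : Matrix ι ι F) *ᵥ v = v) ∧
        W.1.map (Matrix.toLin' (g : Matrix ι ι F)) = W'.1

/-- [CNTCAUCHY] the pointwise stabilizer of `movSp x` has no element of order `r` when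
`dim fixSp x < c`. -/
def PkgCntCauchy : Prop :=
  ∀ (F : Type u) [Field F] [Fintype F] (ι : Type) [Fintype ι] [DecidableEq ι]
    (Q : (ι → F) → F) (r : ℕ) (x : Matrix ι ι F), Std Q r x →
    Module.finrank F (fixSp x) < cc (Fintype.card F) r →
    ∀ g : GL ι F, g ∈ Cfsg.isometryGroup F Q →
      (∀ v ∈ movSp x, (g : Matrix ι ι F) *ᵥ v = v) → g ^ r = 1 → g = 1

/-- [CNTIN] the number of hyperbolic `m`-spaces inside `fixSp x` is prime to `r`. -/
def PkgCntIn : Prop :=
  ∀ (F : Type u) [Field F] [Fintype F] (ι : Type) [Fintype ι] [DecidableEq ι]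
    (Q : (ι → F) → F) (r : ℕ) (x : Matrix ι ι F), Std Q r x →
    ∀ (m : ℕ), Even m → m < Module.finrank F (fixSp x) →
      Module.finrank F (fixSp x) < cc (Fintype.card F) r →
      ¬ r ∣ Nat.card {W : HypSp Q m // W.1 ≤ fixSp x}

end Cfsg.Agent.Lib.Helper23.OHyp
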