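-- Team project OHYP (S5992): glue for package [CNT] (helper23).
import Cfsg.Agent.Lib.Helper23.OHyp.Asm
import Cfsg.Agent.Lib.Helper23.OHyp.CntDefs

set_option autoImplicit false
open scoped MatrixGroups
open Matrix

namespace Cfsg.Agent.Lib.Helper23.OHyp

universe u

theorem natCast_ne_zero_of_not_dvd_card {F : Type u} [Field F] [Fintype F] {r : ℕ}
    (hr : r.Prime) (hrq : ¬ r ∣ Fintype.card F) : (r : F) ≠ 0 := by
  intro h
  obtain ⟨p, hp⟩ := CharP.exists F
  have hpp : p.Prime := CharP.char_is_prime F p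
  have : Fact p.Prime := ⟨hpp⟩
  have h1 : p ∣ r := (CharP.cast_eq_zero_iff F p r).mp h
  have h2 : p = r := (Nat.prime_dvd_prime_iff_eq hpp hr).mp h1
  obtain ⟨k, -, hk⟩ := FiniteField.card F p
  apply hrq
  rw [hk, ← h2]
  exact dvd_pow_self p k.ne_zero

theorem fixSp_one {F : Type u} [Field F] {ι : Type} [Fintype ι] [DecidableEq ι] :
    fixSp (1 : Matrix ι ι F) = ⊤ := by
  unfold fixSp
  rw [Matrix.toLin'_one]
  have : (LinearMap.id : (ι → F) →ₗ[F] (ι → F)) - 1 = 0 := sub_self _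
  rw [this, LinearMap.ker_zero]

theorem pkgCntX_of (hExist : PkgExist.{u}) : PkgCntX.{u} := by
  intro F _ _ ι _ _ Q hQ h2 hodd r hr hr2 hrq m hmc hmk
  have hcpos : 0 < cc (Fintype.card F) r := cc_pos (ordI_pos hr hrq)
  by_cases hcn : cc (Fintype.card F) r ≤ Fintype.card ι
  · have hmodn := Nat.div_add_mod (Fintype.card ι) (cc (Fintype.card F) r)
    have hJ1 : 1 ≤ Fintype.card ι / cc (Fintype.card F) r := Nat.div_pos hcn hcpos
    obtain ⟨x, hxiso, hxord, hxfix⟩ := hExist F ι Q hQ h2 hodd r hr hr2 hrq _ hJ1 (by omega)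
    have hlt := Nat.mod_lt (Fintype.card ι) hcpos
    refine ⟨x, hxiso, ?_, ?_, ?_⟩
    · rw [← hxord]; exact pow_orderOf_eq_one x
    · omega
    · omega
  · push Not at hcn
    have h1 : fixSp (((1 : GL ι F)) : Matrix ι ι F) = ⊤ := by
      rw [Units.val_one]; exact fixSp_one
    refine ⟨1, one_mem _, one_pow r, ?_, ?_⟩
    · rw [h1, finrank_top, Module.finrank_fintype_fun_eq_card]; exact hcn
    · rw [h1, finrank_top, Module.finrank_fintype_fun_eq_card]
      rw [Nat.mod_eq_of_lt hcn] at hmk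
      exact hmk

theorem pkgCntFix_of (hSplit : PkgSplit.{u}) (hDiv : PkgDiv.{u}) : PkgCntFix.{u} := by
  intro F _ _ ι _ _ Q r x hS W hWnd hWinv hlt
  obtain ⟨-, -, -, -, -, hWs⟩ := hSplit F ι Q r x hS
  obtain ⟨-, hW1nd, hW1inv, hsup, hdims⟩ := hWs W hWinv hWnd
  obtain ⟨⟨j, hj⟩, -⟩ := hDiv F ι Q r x hS (W ⊓ movSp x) inf_le_right hW1inv hW1nd
  have hcpos := cc_pos (ordI_pos hS.prime hS.ndvd)
  have hj0 : j = 0 := by
    by_contra hne
    have : cc (Fintype.card F) r ≤ cc (Fintype.card F) r * j :=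
      Nat.le_mul_of_pos_right _ (Nat.pos_of_ne_zero hne)
    omega
  have hbot : W ⊓ movSp x = ⊥ := Submodule.finrank_eq_zero.mp (by rw [hj, hj0, mul_zero])
  rw [hbot, sup_bot_eq] at hsup
  rw [← hsup]; exact inf_le_right

theorem pkgCnt_of (hX : PkgCntX.{u}) (hCong : PkgCntCong.{u}) (hFix : PkgCntFix.{u})
    (hIn : PkgCntIn.{u}) : PkgCnt.{u} := by
  intro F _ _ ι _ _ Q hQ h2 hodd r hr hr2 hrq m hme hmc hmk hdvd
  obtain ⟨x, hxiso, hxr, hxlt, hxm⟩ := hX F ι Q hQ h2 hodd r hr hr2 hrq m hmc hmk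
  have hrF : (r : F) ≠ 0 := natCast_ne_zero_of_not_dvd_card hr hrq
  have hpow : (x : Matrix ι ι F) ^ r = 1 := by
    rw [← Units.val_pow_eq_pow_val, hxr]; rfl
  have hS : Std Q r (x : Matrix ι ι F) := ⟨hQ, h2, hr, hr2, hrq, hrF, hpow, isom_of_mem hxiso⟩
  have hcong := hCong F ι Q m r hr x hxiso hxr
  have hnin := hIn F ι Q r (x : Matrix ι ι F) hS m hme hxm hxlt
  have hcard : Nat.card {W : HypSp Q m // Inv (x : Matrix ι ι F) W.1} =
      Nat.card {W : HypSp Q m // W.1 ≤ fixSp (x : Matrix ι ι F)} := by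
    apply Nat.card_congr
    apply Equiv.subtypeEquivRight
    intro W
    constructor
    · intro hinv
      exact hFix F ι Q r _ hS W.1 W.2.2.1 hinv (by rw [W.2.1]; exact hmc)
    · intro hle
      have h3 := inv_sup (x := (x : Matrix ι ι F)) (W₀ := W.1) (W₁ := ⊥) hle
        (by unfold Inv; simp)
      simpa using h3
  rw [hcard] at hcong
  have h0 : Nat.card (HypSp Q m) % r = 0 := Nat.mod_eq_zero_of_dvd hdvd
  have h1 : Nat.card {W : HypSp Q m // W.1 ≤ fixSp (x : Matrix ι ι F)} % r = 0 := by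
    rw [← hcong]; exact h0
  exact hnin (Nat.dvd_of_mod_eq_zero h1)

end Cfsg.Agent.Lib.Helper23.OHyp
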