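-- Team project OHYP (S5992): the frozen statement from the three packages still open at
-- 22:15Z ([SINGCNT] of the BLK cut, [EXIST], [CNTWITT]); everything else instantiated (helper23).
import Cfsg.Agent.Lib.Helper23.OHyp.Asm
import Cfsg.Agent.Lib.Helper23.OHyp.Cnt
import Cfsg.Agent.Lib.Helper92.OHyp.Qnd
import Cfsg.Agent.Lib.Helper97.OHyp.Split
import Cfsg.Agent.Lib.Helper97.OHyp.OddOmega
import Cfsg.Agent.Lib.Helper87.OHyp.Perp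
import Cfsg.Agent.Lib.Helper84.OHyp.Div
import Cfsg.Agent.Lib.Helper37.OHyp.Sub
import Cfsg.Agent.Lib.Helper37.OHyp.Geom
import Cfsg.Agent.Lib.Helper1.OHyp.Sum
import Cfsg.Agent.Lib.Helper10.OHyp.Invol
import Cfsg.Agent.Lib.Helper45.OHyp.CntCong
import Cfsg.Agent.Lib.Helper62.OHyp.CntCauchy
import Cfsg.Agent.Lib.Helper61.OHyp.CntIn
import Cfsg.Agent.Lib.Helper59.OHyp.BlkOdd
import Cfsg.Agent.Lib.Helper77.OHyp.IrrDim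
import Cfsg.Agent.Lib.Helper96.OHyp.EvenDim
import Cfsg.Agent.Lib.Helper76.OHyp.Maschke
import Cfsg.Agent.Lib.Helper25.OHyp.Frob
import Cfsg.Agent.Lib.Helper76.OHyp.Cyc
import Cfsg.Agent.Lib.Helper25.OHyp.Ann
import Cfsg.Agent.Lib.Helper79.OHyp.Minus

set_option autoImplicit false
open scoped MatrixGroups
open Matrix

namespace Cfsg.Agent.Lib.Helper23.OHyp

universe u

/-- [BLK] from the one leaf still open. -/
theorem pkgBlk_of_singCnt (hSC : Cfsg.Agent.Lib.Helper59.OHyp.PkgSingCnt.{u}) : PkgBlk.{u} :=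
  Cfsg.Agent.Lib.Helper59.OHyp.pkgBlk_of_leaves
    Cfsg.Agent.Lib.Helper77.OHyp.pkgIrrDim
    Cfsg.Agent.Lib.Helper96.OHyp.pkgEvenDim
    Cfsg.Agent.Lib.Helper76.OHyp.pkgMaschke
    Cfsg.Agent.Lib.Helper25.OHyp.pkgFrob
    Cfsg.Agent.Lib.Helper76.OHyp.pkgCyc
    Cfsg.Agent.Lib.Helper25.OHyp.pkgAnn
    (Cfsg.Agent.Lib.Helper79.OHyp.pkgMinus_of hSC)

/-- [DIV] from [BLK]. -/
theorem pkgDiv_of_blk (hBlk : PkgBlk.{u}) : PkgDiv.{u} :=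
  Cfsg.Agent.Lib.Helper84.OHyp.pkgDiv_of hBlk
    Cfsg.Agent.Lib.Helper87.OHyp.pkgPerp Cfsg.Agent.Lib.Helper1.OHyp.pkgSum

/-- [SUB] from [BLK]. -/
theorem pkgSub_of_blk (hBlk : PkgBlk.{u}) : PkgSub.{u} :=
  Cfsg.Agent.Lib.Helper37.OHyp.pkgSub_of hBlk
    Cfsg.Agent.Lib.Helper87.OHyp.pkgPerp Cfsg.Agent.Lib.Helper1.OHyp.pkgSum

/-- [INVOL]. -/
theorem pkgInvol_all : PkgInvol.{u} :=
  Cfsg.Agent.Lib.Helper10.OHyp.pkgInvol_of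
    Cfsg.Agent.Lib.Helper87.OHyp.pkgPerp Cfsg.Agent.Lib.Helper1.OHyp.pkgSum

/-- [CNT] from [BLK], [EXIST], [CNTWITT]. -/
theorem pkgCnt_of_rest (hBlk : PkgBlk.{u}) (hExist : PkgExist.{u}) (hWitt : PkgCntWitt.{u}) :
    PkgCnt.{u} :=
  pkgCnt_of (pkgCntX_of hExist) Cfsg.Agent.Lib.Helper45.OHyp.pkgCntCong
    (pkgCntFix_of Cfsg.Agent.Lib.Helper97.OHyp.pkgSplit (pkgDiv_of_blk hBlk))
    (Cfsg.Agent.Lib.Helper61.OHyp.pkgCntIn_of Cfsg.Agent.Lib.Helper37.OHyp.pkgGeom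
      Cfsg.Agent.Lib.Helper97.OHyp.pkgSplit hWitt
      (Cfsg.Agent.Lib.Helper62.OHyp.pkgCntCauchy_of Cfsg.Agent.Lib.Helper97.OHyp.pkgSplit
        (pkgDiv_of_blk hBlk)))

/-- The frozen statement of S5992 from [BLK], [EXIST], [CNTWITT]. -/
theorem result_of_rest (hBlk : PkgBlk.{u}) (hExist : PkgExist.{u}) (hWitt : PkgCntWitt.{u})
    {F : Type u} [Field F] [Fintype F] {p : ℕ} [Fact p.Prime] [CharP F p] {q : ℕ} (hq : Fintype.card F = q) (hqodd : Odd q)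
    (d m : ℕ) (hd : 3 ≤ d) (hm : 2 ≤ m) (hme : Even m) (hmn : m ≤ 2 * d)
    (r : ℕ) [Fact r.Prime] (hrp : r ≠ p)
    (hrΩ : r ∣ Nat.card {W : Submodule F (Unit ⊕ (Fin d ⊕ Fin d) → F) // Module.finrank F ↥W = m ∧ Cfsg.Geo.IsNondegenerateOn (QuadraticMap.polar (Cfsg.quadFormOdd d F)) W ∧ Cfsg.Geo.IsPlusTypeOn (Cfsg.quadFormOdd d F) W})
    (i c : ℕ) (hi : i = orderOf (q : ZMod r)) (hc : c = if Even i then i else 2 * i) :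
    (∀ x : GL (Unit ⊕ (Fin d ⊕ Fin d)) F, x ∈ Cfsg.Geo.omegaGL (Cfsg.quadFormOdd d F) → orderOf x = r →
      ∃ W : Submodule F (Unit ⊕ (Fin d ⊕ Fin d) → F), (Module.finrank F ↥W = m ∧ Cfsg.Geo.IsNondegenerateOn (QuadraticMap.polar (Cfsg.quadFormOdd d F)) W ∧ Cfsg.Geo.IsPlusTypeOn (Cfsg.quadFormOdd d F) W) ∧ W.map (Matrix.toLin' (x : Matrix (Unit ⊕ (Fin d ⊕ Fin d)) (Unit ⊕ (Fin d ⊕ Fin d)) F)) ≤ W) ↔
    (r = 2 ∨
     (2 < r ∧ Odd i ∧ c ≤ m ∧ (m % c = 0 ∨ (0 < m % c ∧ m % c < (2 * d + 1) % c))) ∨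
     (2 < r ∧ Even i ∧ i ≤ m ∧ m % c < (2 * d + 1) % c ∧ (0 < m % c ∨ Even (m / i)))) :=
  result_of Cfsg.Agent.Lib.Helper92.OHyp.pkgQnd Cfsg.Agent.Lib.Helper97.OHyp.pkgSplit
    (pkgDiv_of_blk hBlk) (pkgSub_of_blk hBlk) Cfsg.Agent.Lib.Helper37.OHyp.pkgGeom
    Cfsg.Agent.Lib.Helper1.OHyp.pkgSum hExist Cfsg.Agent.Lib.Helper97.OHyp.pkgOddOmega
    pkgInvol_all (pkgCnt_of_rest hBlk hExist hWitt)
    hq hqodd d m hd hm hme hmn r hrp hrΩ i c hi hc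

end Cfsg.Agent.Lib.Helper23.OHyp
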